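import Mathlib
import Cfsg.Agent.S0895

set_option autoImplicit false
open Cfsg

namespace Cfsg.Agent.Lib.Helper25

open Cfsg.Agent.Lib.Helper2
open scoped ComplexConjugate Matrix

/-- Frobenius–Schur: invariant bilinear forms of an irreducible representation with real
character. -/
theorem fs_form {G : Type*} [Group G] [Fintype G] (n : ℕ)
    (ρ : Representation ℂ G (Fin n → ℂ)) (hirr : ρ.IsIrreducible)
    (hreal : ∀ g : G, (ρ.character g).im = 0) :
    (∃ M : Matrix (Fin n) (Fin n) ℂ, M ≠ 0 ∧ ∀ g : G,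
        (LinearMap.toMatrix' (ρ g)).transpose * M * LinearMap.toMatrix' (ρ g) = M) ∧
    ∀ M : Matrix (Fin n) (Fin n) ℂ,
      (∀ g : G, (LinearMap.toMatrix' (ρ g)).transpose * M * LinearMap.toMatrix' (ρ g) = M) →
      M.transpose = ((Nat.card G : ℂ)⁻¹ * ∑ s : G, ρ.character (s * s)) • M := by
  classical
  have hχ : Cfsg.IsIrrCharacter G ρ.character := ⟨n, ρ, hirr, rfl⟩
  have h1 := classInner_irr_self hχ
  have htr : ∀ g : G, ρ.character g = Matrix.trace (LinearMap.toMatrix' (ρ g)) := by
    intro g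
    have := LinearMap.trace_eq_matrix_trace ℂ (Pi.basisFun ℂ (Fin n)) (ρ g)
    rw [LinearMap.toMatrix_eq_toMatrix'] at this
    exact this
  have hmul : ∀ g h : G, LinearMap.toMatrix' (ρ (g * h))
      = LinearMap.toMatrix' (ρ g) * LinearMap.toMatrix' (ρ h) := fun g h => by
    rw [map_mul, Module.End.mul_eq_comp, LinearMap.toMatrix'_comp]
  have hone : LinearMap.toMatrix' (ρ (1 : G)) = 1 := by
    rw [map_one, Module.End.one_eq_id, LinearMap.toMatrix'_id]
  have hinv : ∀ g : G, LinearMap.toMatrix' (ρ g) * LinearMap.toMatrix' (ρ g⁻¹) = 1 := fun g => by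
    rw [← hmul, mul_inv_cancel, hone]
  have he : ∀ g : G, ρ g = Matrix.toLin' (LinearMap.toMatrix' (ρ g)) := fun g => by
    rw [Matrix.toLin'_toMatrix']
  have hcardne : (Nat.card G : ℂ) ≠ 0 := by
    exact_mod_cast Nat.card_pos.ne'
  have hreal' : ∀ g : G, conj (ρ.character g) = ρ.character g :=
    fun g => Complex.conj_eq_iff_im.2 (hreal g)
  -- Σ χ² = |G|
  have hsq : ∑ g : G, ρ.character g * ρ.character g = (Nat.card G : ℂ) := by
    rw [classInner_def] at h1
    have h2 : ∑ g : G, ρ.character g * conj (ρ.character g) = (Nat.card G : ℂ) := by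
      field_simp at h1
      exact h1
    rw [← h2]
    apply Finset.sum_congr rfl
    intro g _
    rw [hreal' g]
  -- averaging
  have havg : ∀ (A : Matrix (Fin n) (Fin n) ℂ) (h : G),
      (LinearMap.toMatrix' (ρ h))ᵀ *
        (∑ g : G, (LinearMap.toMatrix' (ρ g))ᵀ * A * LinearMap.toMatrix' (ρ g)) *
        LinearMap.toMatrix' (ρ h)
      = ∑ g : G, (LinearMap.toMatrix' (ρ g))ᵀ * A * LinearMap.toMatrix' (ρ g) := by
    intro A h
    rw [Finset.mul_sum, Finset.sum_mul]
    apply Fintype.sum_equiv (Equiv.mulRight h)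
    intro g
    simp only [Equiv.coe_mulRight, hmul, Matrix.transpose_mul, Matrix.mul_assoc]
  have hent : ∀ i j a b : Fin n,
      (∑ g : G, (LinearMap.toMatrix' (ρ g))ᵀ * Matrix.single i j (1 : ℂ) *
          LinearMap.toMatrix' (ρ g)) a b
        = ∑ g : G, LinearMap.toMatrix' (ρ g) i a * LinearMap.toMatrix' (ρ g) j b := by
    intro i j a b
    rw [Matrix.sum_apply]
    apply Finset.sum_congr rfl
    intro g _
    rw [Cfsg.Agent.S0895.entry_single, Matrix.transpose_apply]
  have hdiag : ∑ i : Fin n, ∑ j : Fin n,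
      (∑ g : G, LinearMap.toMatrix' (ρ g) i i * LinearMap.toMatrix' (ρ g) j j)
      = (Nat.card G : ℂ) := by
    rw [← hsq]
    simp only [htr, Matrix.trace, Matrix.diag, Finset.sum_mul_sum]
    conv_rhs => rw [Finset.sum_comm]
    apply Finset.sum_congr rfl; intro i _
    rw [Finset.sum_comm]
  have hoff : ∑ i : Fin n, ∑ j : Fin n,
      (∑ g : G, LinearMap.toMatrix' (ρ g) j i * LinearMap.toMatrix' (ρ g) i j)
      = ∑ g : G, ρ.character (g * g) := by
    simp only [htr, hmul, Matrix.trace, Matrix.diag, Matrix.mul_apply]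
    conv_rhs => rw [Finset.sum_comm]
    apply Finset.sum_congr rfl; intro i _
    rw [Finset.sum_comm]
    apply Finset.sum_congr rfl; intro g _
    apply Finset.sum_congr rfl; intro j _
    ring
  -- twist
  have htw : ∀ (M : Matrix (Fin n) (Fin n) ℂ),
      (∀ g : G, (LinearMap.toMatrix' (ρ g))ᵀ * M * LinearMap.toMatrix' (ρ g) = M) →
      ∀ g : G, M * LinearMap.toMatrix' (ρ g) = (LinearMap.toMatrix' (ρ g⁻¹))ᵀ * M := by
    intro M hM g
    calc M * LinearMap.toMatrix' (ρ g)
        = ((LinearMap.toMatrix' (ρ g⁻¹))ᵀ * (LinearMap.toMatrix' (ρ g))ᵀ) * M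
            * LinearMap.toMatrix' (ρ g) := by
          rw [← Matrix.transpose_mul, hinv, Matrix.transpose_one, Matrix.one_mul]
      _ = (LinearMap.toMatrix' (ρ g⁻¹))ᵀ *
            ((LinearMap.toMatrix' (ρ g))ᵀ * M * LinearMap.toMatrix' (ρ g)) := by
          simp only [Matrix.mul_assoc]
      _ = (LinearMap.toMatrix' (ρ g⁻¹))ᵀ * M := by rw [hM g]
  -- key: all invariant forms satisfy Nᵀ = c • N for a common c, provided a nonzero one exists
  have hkey : ∀ (M : Matrix (Fin n) (Fin n) ℂ), M ≠ 0 →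
      (∀ g : G, (LinearMap.toMatrix' (ρ g))ᵀ * M * LinearMap.toMatrix' (ρ g) = M) →
      Mᵀ = ((Nat.card G : ℂ)⁻¹ * ∑ s : G, ρ.character (s * s)) • M := by
    intro M h0 hM
    have h1M := htw M hM
    -- kernel invariant
    have hU : ∀ g : G, ∀ v ∈ LinearMap.ker (Matrix.toLin' M),
        ρ g v ∈ LinearMap.ker (Matrix.toLin' M) := by
      intro g v hv
      rw [LinearMap.mem_ker] at hv ⊢
      rw [he g, ← LinearMap.comp_apply, ← Matrix.toLin'_mul, h1M g, Matrix.toLin'_mul,
        LinearMap.comp_apply, hv, map_zero]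
    have hunit : IsUnit M := by
      rcases Cfsg.Agent.S0895.invariant_bot_or_top ρ hirr _ hU with hb | ht
      · rw [← Matrix.mulVec_injective_iff_isUnit]
        have hinj : Function.Injective (Matrix.toLin' M) := LinearMap.ker_eq_bot.1 hb
        intro v w hvw
        apply hinj
        simpa [Matrix.toLin'_apply] using hvw
      · exfalso; apply h0
        have : Matrix.toLin' M = 0 := LinearMap.ker_eq_top.1 ht
        simpa using this
    have hdet : IsUnit M.det := (Matrix.isUnit_iff_isUnit_det M).1 hunit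
    have h2 : ∀ g : G, LinearMap.toMatrix' (ρ g) * M⁻¹
        = M⁻¹ * (LinearMap.toMatrix' (ρ g⁻¹))ᵀ := by
      intro g
      calc LinearMap.toMatrix' (ρ g) * M⁻¹
          = M⁻¹ * (M * LinearMap.toMatrix' (ρ g)) * M⁻¹ := by
            rw [← Matrix.mul_assoc, Matrix.nonsing_inv_mul _ hdet, Matrix.one_mul]
        _ = M⁻¹ * ((LinearMap.toMatrix' (ρ g⁻¹))ᵀ * M) * M⁻¹ := by rw [h1M g]
        _ = M⁻¹ * (LinearMap.toMatrix' (ρ g⁻¹))ᵀ := by
            rw [Matrix.mul_assoc, Matrix.mul_assoc, Matrix.mul_nonsing_inv _ hdet,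
              Matrix.mul_one]
    -- any invariant N is a multiple of M
    have hmult : ∀ (N : Matrix (Fin n) (Fin n) ℂ),
        (∀ g : G, (LinearMap.toMatrix' (ρ g))ᵀ * N * LinearMap.toMatrix' (ρ g) = N) →
        ∃ a : ℂ, N = a • M := by
      intro N hN
      have h1N := htw N hN
      have hcomm : ∀ g : G, (M⁻¹ * N) * LinearMap.toMatrix' (ρ g)
          = LinearMap.toMatrix' (ρ g) * (M⁻¹ * N) := by
        intro g
        rw [Matrix.mul_assoc, h1N g, ← Matrix.mul_assoc, ← h2 g, Matrix.mul_assoc]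
      obtain ⟨a, ha⟩ := Cfsg.Agent.Lib.Helper8.schur_scalar ρ hirr (Matrix.toLin' (M⁻¹ * N)) (by
        intro g
        rw [he g, ← Matrix.toLin'_mul, ← Matrix.toLin'_mul, hcomm g])
      have ha' : M⁻¹ * N = a • (1 : Matrix (Fin n) (Fin n) ℂ) := by
        have := congrArg LinearMap.toMatrix' ha
        rw [LinearMap.toMatrix'_toLin'] at this
        rw [this, map_smul]
        congr 1
        exact LinearMap.toMatrix'_id
      refine ⟨a, ?_⟩
      have := congrArg (M * ·) ha'
      simp only [← Matrix.mul_assoc, Matrix.mul_nonsing_inv _ hdet, Matrix.mul_one,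
        Matrix.mul_smul, Matrix.one_mul] at this
      exact this
    have hMt : ∀ g : G, (LinearMap.toMatrix' (ρ g))ᵀ * Mᵀ * LinearMap.toMatrix' (ρ g) = Mᵀ := by
      intro g
      have := congrArg Matrix.transpose (hM g)
      rw [Matrix.transpose_mul, Matrix.transpose_mul, Matrix.transpose_transpose,
        ← Matrix.mul_assoc] at this
      exact this
    obtain ⟨c, hc⟩ := hmult Mᵀ hMt
    -- every invariant N has Nᵀ = c • N
    have hall : ∀ (N : Matrix (Fin n) (Fin n) ℂ),
        (∀ g : G, (LinearMap.toMatrix' (ρ g))ᵀ * N * LinearMap.toMatrix' (ρ g) = N) →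
        Nᵀ = c • N := by
      intro N hN
      obtain ⟨a, ha⟩ := hmult N hN
      rw [ha, Matrix.transpose_smul, hc, smul_smul, smul_smul, mul_comm]
    have hcent : ∀ i j : Fin n,
        ∑ g : G, LinearMap.toMatrix' (ρ g) j i * LinearMap.toMatrix' (ρ g) i j
          = c * ∑ g : G, LinearMap.toMatrix' (ρ g) i i * LinearMap.toMatrix' (ρ g) j j := by
      intro i j
      have h3 := hall _ (havg (Matrix.single i j (1 : ℂ)))
      have h4 := congrFun (congrFun h3 i) j
      rw [Matrix.transpose_apply, Matrix.smul_apply, hent, hent, smul_eq_mul] at h4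
      rw [← h4]
      apply Finset.sum_congr rfl
      intro g _
      ring
    have hcval : ∑ g : G, ρ.character (g * g) = c * (Nat.card G : ℂ) := by
      rw [← hoff, ← hdiag, Finset.mul_sum]
      apply Finset.sum_congr rfl; intro i _
      rw [Finset.mul_sum]
      apply Finset.sum_congr rfl; intro j _
      exact hcent i j
    rw [hc, hcval]
    congr 1
    field_simp
  refine ⟨?_, ?_⟩
  · by_contra hcon
    push Not at hcon
    have hzero : ∀ i j : Fin n,
        (∑ g : G, (LinearMap.toMatrix' (ρ g))ᵀ * Matrix.single i j (1 : ℂ) *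
          LinearMap.toMatrix' (ρ g)) = 0 := by
      intro i j
      by_contra hne
      obtain ⟨g, hg⟩ := hcon _ hne
      exact hg (havg _ g)
    have : (Nat.card G : ℂ) = 0 := by
      rw [← hdiag]
      apply Finset.sum_eq_zero; intro i _
      apply Finset.sum_eq_zero; intro j _
      rw [← hent i j i j, hzero i j]
      rfl
    exact hcardne this
  · intro M hM
    by_cases h0 : M = 0
    · rw [h0, Matrix.transpose_zero, smul_zero]
    · exact hkey M h0 hM

end Cfsg.Agent.Lib.Helper25
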