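import Mathlib
import Cfsg.Prelude.Def_Characters
import Cfsg.Agent.Lib.Helper2.CharGalois

set_option autoImplicit false

namespace Cfsg.Agent.Lib.Helper25

open Cfsg.Agent.Lib.Helper2

/-- the pointwise stabilizer of a family of elements of the cyclotomic field -/
def fvStab (n : ℕ) [NeZero n] {X : Type*} (x : X → CycK n) :
    Subgroup (CycK n ≃ₐ[ℚ] CycK n) where
  carrier := {σ | ∀ i, σ (x i) = x i}
  mul_mem' := by
    intro a b ha hb i
    rw [AlgEquiv.mul_apply, hb i, ha i]
  one_mem' := fun i => rfl
  inv_mem' := by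
    intro a ha i
    have h := ha i
    calc a⁻¹ (x i) = a⁻¹ (a (x i)) := by rw [h]
      _ = x i := a.symm_apply_apply (x i)

theorem mem_fvStab (n : ℕ) [NeZero n] {X : Type*} (x : X → CycK n)
    (σ : CycK n ≃ₐ[ℚ] CycK n) : σ ∈ fvStab n x ↔ ∀ i, σ (x i) = x i := Iff.rfl

/-- degree of the field generated by the images of a family, times the order of the
stabilizer, is the degree of the cyclotomic field -/
theorem fv_finrank (n : ℕ) [NeZero n] {X : Type*} (x : X → CycK n) :
    Module.finrank ℚ (IntermediateField.adjoin ℚ (Set.range (fun i => cycEmb n (x i))))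
      * Nat.card (fvStab n x) = Nat.totient n := by
  obtain ⟨E, hE⟩ : ∃ E : IntermediateField ℚ (CycK n),
      E = IntermediateField.adjoin ℚ (Set.range x) := ⟨_, rfl⟩
  have h1 : E.fixingSubgroup = fvStab n x := by
    apply le_antisymm
    · intro σ hσ i
      have hmem : x i ∈ E := by
        rw [hE]
        exact IntermediateField.subset_adjoin ℚ _ ⟨i, rfl⟩
      exact (IntermediateField.mem_fixingSubgroup_iff E σ).mp hσ (x i) hmem
    · rw [← IntermediateField.le_iff_le, hE, IntermediateField.adjoin_le_iff]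
      rintro _ ⟨i, rfl⟩
      rw [SetLike.mem_coe, IntermediateField.mem_fixedField_iff]
      intro f hf
      exact hf i
  have h2 : Nat.card E.fixingSubgroup = Module.finrank E (CycK n) :=
    IsGalois.card_fixingSubgroup_eq_finrank E
  have h3 : Module.finrank ℚ E * Module.finrank E (CycK n) = Module.finrank ℚ (CycK n) :=
    Module.finrank_mul_finrank ℚ E (CycK n)
  have h4 : Module.finrank ℚ (CycK n) = Nat.totient n :=
    IsCyclotomicExtension.finrank (CycK n) (Polynomial.cyclotomic.irreducible_rat (NeZero.pos n))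
  have h5 : IntermediateField.adjoin ℚ (Set.range (fun i => cycEmb n (x i)))
      = E.map (cycEmb n) := by
    rw [hE, IntermediateField.adjoin_map]
    congr 1
    ext z
    constructor
    · rintro ⟨i, rfl⟩
      exact ⟨x i, ⟨i, rfl⟩, rfl⟩
    · rintro ⟨_, ⟨i, rfl⟩, rfl⟩
      exact ⟨i, rfl⟩
  have h6 : Module.finrank ℚ (E.map (cycEmb n)) = Module.finrank ℚ E :=
    ((IntermediateField.equivMap E (cycEmb n)).toLinearEquiv.finrank_eq).symm
  rw [h5, h6, ← h1, h2, h3, h4]

end Cfsg.Agent.Lib.Helper25
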