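import Mathlib
import Cfsg.Agent.Lib.Helper25.Defect0
import Cfsg.Agent.Lib.Helper25.BlockOrth
import Cfsg.Agent.Lib.Helper25.Codegree
import Cfsg.Agent.Lib.Helper2.CharFS
import Cfsg.Agent.Lib.Helper2.CharDecomp

/-!
# Characters of defect zero for `2` and for the odd primes occurring in centralizers of
involutions
-/

set_option autoImplicit false

namespace Cfsg.Agent.Lib.Helper25

open Cfsg Cfsg.Agent.Lib.Helper2

open scoped ComplexConjugate

section invdef

variable {G : Type*} [Group G] [Fintype G]

/-- the Frobenius–Schur indicator of an irreducible character -/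
theorem fs_indicator' (χ : IrrCharacter G) :
    ((Nat.card G : ℂ)⁻¹ * ∑ s : G, (χ : G → ℂ) (s * s) = 0
      ∨ (Nat.card G : ℂ)⁻¹ * ∑ s : G, (χ : G → ℂ) (s * s) = 1
      ∨ (Nat.card G : ℂ)⁻¹ * ∑ s : G, (χ : G → ℂ) (s * s) = -1)
    ∧ ((Nat.card G : ℂ)⁻¹ * ∑ s : G, (χ : G → ℂ) (s * s) = 0
      ↔ ∃ s : G, ((χ : G → ℂ) s).im ≠ 0) := by
  obtain ⟨n, ρ, hρ, hχ⟩ := χ.2
  have := hρ
  have h := frobenius_schur ρ
  rw [hχ] at h
  exact h

/-- the size of a conjugacy class -/
theorem card_conj_class_mul [DecidableEq G] (t : G) :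
    (Finset.univ.filter (fun g : G => ∃ x : G, x * t * x⁻¹ = g)).card
      * Nat.card (Subgroup.centralizer ({t} : Set G)) = Nat.card G := by
  classical
  obtain ⟨Zf, hZf⟩ : ∃ s : Finset G, s = Finset.univ.filter
    (fun x : G => x ∈ Subgroup.centralizer ({t} : Set G)) := ⟨_, rfl⟩
  have hmZ : ∀ x, x ∈ Zf ↔ x ∈ Subgroup.centralizer ({t} : Set G) := fun x => by
    rw [hZf, Finset.mem_filter]
    exact ⟨fun h => h.2, fun h => ⟨Finset.mem_univ _, h⟩⟩
  have e2 : Nat.card (Subgroup.centralizer ({t} : Set G)) = Zf.card := by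
    rw [Nat.card_eq_fintype_card]
    exact Fintype.card_of_subtype Zf hmZ
  have hfiber : ∀ g ∈ Finset.univ.filter (fun g : G => ∃ x : G, x * t * x⁻¹ = g),
      ((Finset.univ : Finset G).filter (fun x => x * t * x⁻¹ = g)).card = Zf.card := by
    intro g hg
    rw [Finset.mem_filter] at hg
    obtain ⟨x₀, hx₀⟩ := hg.2
    symm
    apply Finset.card_bij (fun d _ => x₀ * d)
    · intro d hd
      rw [hmZ, Subgroup.mem_centralizer_singleton_iff] at hd
      rw [Finset.mem_filter]
      refine ⟨Finset.mem_univ _, ?_⟩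
      calc x₀ * d * t * (x₀ * d)⁻¹ = x₀ * (d * t) * d⁻¹ * x₀⁻¹ := by group
        _ = x₀ * (t * d) * d⁻¹ * x₀⁻¹ := by rw [hd]
        _ = x₀ * t * x₀⁻¹ := by group
        _ = g := hx₀
    · intro d₁ _ d₂ _ h
      exact mul_left_cancel h
    · intro x hx
      rw [Finset.mem_filter] at hx
      refine ⟨x₀⁻¹ * x, ?_, by group⟩
      rw [hmZ, Subgroup.mem_centralizer_singleton_iff]
      have h1 : x * t * x⁻¹ = x₀ * t * x₀⁻¹ := hx.2.trans hx₀.symm
      calc x₀⁻¹ * x * t = x₀⁻¹ * (x * t * x⁻¹) * x := by group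
        _ = x₀⁻¹ * (x₀ * t * x₀⁻¹) * x := by rw [h1]
        _ = t * (x₀⁻¹ * x) := by group
  have hcard : (Finset.univ : Finset G).card
      = (Finset.univ.filter (fun g : G => ∃ x : G, x * t * x⁻¹ = g)).card * Zf.card := by
    rw [Finset.card_eq_sum_card_fiberwise (f := fun x => x * t * x⁻¹) (s := Finset.univ)
      (t := Finset.univ.filter (fun g : G => ∃ x : G, x * t * x⁻¹ = g))
      (fun x _ => Finset.mem_coe.mpr (Finset.mem_filter.mpr ⟨Finset.mem_univ _, x, rfl⟩))]
    rw [Finset.sum_congr rfl hfiber, Finset.sum_const, smul_eq_mul]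
  rw [e2, ← hcard, Finset.card_univ, Nat.card_eq_fintype_card]

omit [Fintype G] in
theorem orderOf_conj_eq' (c x : G) : orderOf (c * x * c⁻¹) = orderOf x :=
  orderOf_injective (MulAut.conj c).toMonoidHom (MulAut.conj c).injective x

/-- Brauer–Fowler: an irreducible character of defect zero for `2` and for every odd prime
`p` such that the group has elements of order `2p` -/
theorem involution_defect_zero (heven : Even (Nat.card G)) (χ : IrrCharacter G)
    (h2 : 2 ^ (Nat.card G).factorization 2 ∣ charDegree (χ : G → ℂ))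
    (hp : ∀ p : ℕ, p.Prime → p ≠ 2 → (∃ g : G, orderOf g = 2 * p) →
      p ^ (Nat.card G).factorization p ∣ charDegree (χ : G → ℂ)) :
    (∀ s t : G, orderOf s = 2 → orderOf t = 2 → IsConj s t) ∧
    (∀ s : G, orderOf s = 2 →
      Nat.card (Subgroup.centralizer ({s} : Set G)) = charDegree (χ : G → ℂ) ∧
      (Nat.card (Subgroup.centralizer ({s} : Set G))).Coprime
        (Subgroup.centralizer ({s} : Set G)).index) ∧
    (Nat.card G : ℂ)⁻¹ * ∑ g : G, (χ : G → ℂ) (g * g) = 1 := by
  classical
  obtain ⟨x, hx1, hxpos, hxdvd, hcd⟩ := irr_degree χ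
  rw [hcd] at h2 hp ⊢
  have hG0 : Nat.card G ≠ 0 := Nat.card_pos.ne'
  have hne := card_ne_zero_complex G
  -- vanishing
  have hnd : ∀ p : ℕ, p.Prime → p ^ (Nat.card G).factorization p ∣ x → ∀ k : ℕ,
      x * k = Nat.card G → ¬ p ∣ k := by
    intro p hpp hdvd k hk hdiv
    have h1 : p ^ ((Nat.card G).factorization p + 1) ∣ Nat.card G := by
      rw [pow_succ]
      have h0 := Nat.mul_dvd_mul hdvd hdiv
      rw [hk] at h0
      exact h0
    exact Nat.pow_succ_factorization_not_dvd hG0 hpp h1
  have hvan : ∀ p : ℕ, p.Prime → p ^ (Nat.card G).factorization p ∣ x → ∀ y : G,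
      p ∣ orderOf y → (χ : G → ℂ) y = 0 := by
    intro p hpp hdvd y hy
    have : Fact p.Prime := ⟨hpp⟩
    obtain ⟨M, hM⟩ := exists_isPModular p hpp
    exact irr_vanish_of_defect_zero hM χ x hx1 hxdvd
      (hnd p hpp hdvd _ (Nat.mul_div_cancel' hxdvd)) y hy
  have hV2 : ∀ y : G, 2 ∣ orderOf y → (χ : G → ℂ) y = 0 := hvan 2 Nat.prime_two h2
  have h2p : ∀ t c : G, orderOf t = 2 → c * t = t * c → ∀ p : ℕ, p.Prime → p ≠ 2 →
      p ∣ orderOf c → ∃ g : G, orderOf g = 2 * p := by
    intro t c ht hct p hpp hp2 hpc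
    refine ⟨t * c ^ (orderOf c / p), ?_⟩
    have hz : orderOf (c ^ (orderOf c / p)) = p :=
      orderOf_pow_orderOf_div (orderOf_pos c).ne' hpc
    have hcomm : Commute t (c ^ (orderOf c / p)) := Commute.pow_right hct.symm _
    have hcop : Nat.Coprime (orderOf t) (orderOf (c ^ (orderOf c / p))) := by
      rw [ht, hz]
      exact (Nat.coprime_primes Nat.prime_two hpp).mpr (Ne.symm hp2)
    rw [hcomm.orderOf_mul_eq_mul_orderOf_of_coprime hcop, ht, hz]
  have hK : ∀ t c : G, orderOf t = 2 → c * t = t * c → c ≠ 1 → (χ : G → ℂ) c = 0 := by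
    intro t c ht hct hc1
    by_cases hc2 : 2 ∣ orderOf c
    · exact hV2 c hc2
    · have hco : orderOf c ≠ 1 := fun h => hc1 (orderOf_eq_one_iff.mp h)
      obtain ⟨p, hpp, hpc⟩ := Nat.exists_prime_and_dvd hco
      have hp2 : p ≠ 2 := fun h => hc2 (h ▸ hpc)
      exact hvan p hpp (hp p hpp hp2 (h2p t c ht hct p hpp hp2 hpc)) c hpc
  have hx0 : (x : ℂ) ≠ 0 := by exact_mod_cast hxpos.ne'
  have h2x : 2 ∣ x := by
    have hv : 1 ≤ (Nat.card G).factorization 2 :=
      (Nat.Prime.dvd_iff_one_le_factorization Nat.prime_two hG0).mp (even_iff_two_dvd.mp heven)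
    exact dvd_trans (dvd_pow_self 2 (by omega)) h2
  have hχne : (χ : G → ℂ) ≠ (fun _ => 1) := by
    intro h
    have h1 := congrFun h 1
    rw [hx1] at h1
    have hx1' : x = 1 := by exact_mod_cast h1
    omega
  have hsum0 : ∑ z : G, (χ : G → ℂ) z = 0 := by
    have h := classInner_irr_ne χ.2 isIrrCharacter_one hχne
    rw [classInner_def] at h
    simp only [map_one, mul_one] at h
    rcases mul_eq_zero.mp h with h | h
    · exact absurd (inv_eq_zero.mp h) hne
    · exact h
  -- the sum over the squares
  have hterm : ∀ g : G, (χ : G → ℂ) (g * g)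
      = (if Odd (orderOf g) then (χ : G → ℂ) (g * g) else 0)
        + (if orderOf g = 2 then (x : ℂ) else 0) := by
    intro g
    by_cases hodd : Odd (orderOf g)
    · rw [if_pos hodd, if_neg (by
        intro h
        rw [h] at hodd
        exact absurd hodd (by decide)), add_zero]
    · rw [if_neg hodd, zero_add]
      by_cases hg2 : orderOf g = 2
      · rw [if_pos hg2]
        have hgg : g * g = 1 := by
          have h := pow_orderOf_eq_one g
          rwa [hg2, pow_two] at h
        rw [hgg, hx1]
      · rw [if_neg hg2]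
        have hev : 2 ∣ orderOf g := by
          rw [Nat.not_odd_iff_even] at hodd
          exact even_iff_two_dvd.mp hodd
        have ht : orderOf (g ^ (orderOf g / 2)) = 2 :=
          orderOf_pow_orderOf_div (orderOf_pos g).ne' hev
        apply hK (g ^ (orderOf g / 2)) (g * g) ht
        · rw [← pow_two, ← pow_add, ← pow_add, add_comm]
        · intro h1
          apply hg2
          apply orderOf_eq_prime (by rw [pow_two]; exact h1)
          intro hg1
          rw [hg1, orderOf_one] at hev
          omega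
  have hsqS : ∀ g : G, Odd (orderOf g) → orderOf (g * g) = orderOf g := by
    intro g hg
    rw [← pow_two]
    exact Nat.Coprime.orderOf_pow (Nat.coprime_two_right.mpr hg)
  have hrec : ∀ g : G, Odd (orderOf g) → (g * g) ^ ((orderOf g + 1) / 2) = g := by
    intro g hg
    obtain ⟨j, hj⟩ := hg
    have e : (orderOf g + 1) / 2 = j + 1 := by omega
    rw [e, ← pow_two, ← pow_mul]
    have e2 : 2 * (j + 1) = orderOf g + 1 := by omega
    rw [e2, pow_succ, pow_orderOf_eq_one, one_mul]
  have hinj : Set.InjOn (fun g : G => g * g)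
      ((Finset.univ.filter (fun g : G => Odd (orderOf g)) : Finset G) : Set G) := by
    intro g hg h hh hgh
    rw [Finset.mem_coe, Finset.mem_filter] at hg hh
    have h1 : g * g = h * h := hgh
    have h2 : orderOf g = orderOf h := by
      rw [← hsqS g hg.2, ← hsqS h hh.2, h1]
    rw [← hrec g hg.2, ← hrec h hh.2, h1, h2]
  have himage : (Finset.univ.filter (fun g : G => Odd (orderOf g))).image (fun g : G => g * g)
      = Finset.univ.filter (fun g : G => Odd (orderOf g)) := by
    apply Finset.eq_of_subset_of_card_le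
    · intro z hz
      rw [Finset.mem_image] at hz
      obtain ⟨g, hg, rfl⟩ := hz
      rw [Finset.mem_filter] at hg ⊢
      refine ⟨Finset.mem_univ _, ?_⟩
      rw [hsqS g hg.2]
      exact hg.2
    · rw [Finset.card_image_of_injOn hinj]
  have hoddsum : ∑ g : G, (if Odd (orderOf g) then (χ : G → ℂ) (g * g) else 0) = 0 := by
    rw [← Finset.sum_filter, ← Finset.sum_image (f := fun z => (χ : G → ℂ) z) hinj, himage,
      Finset.sum_filter_of_ne]
    · exact hsum0
    · intro z _ hz
      by_contra hcon
      rw [Nat.not_odd_iff_even] at hcon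
      exact hz (hV2 z (even_iff_two_dvd.mp hcon))
  have hFS : ∑ g : G, (χ : G → ℂ) (g * g)
      = ((Finset.univ.filter (fun g : G => orderOf g = 2)).card : ℂ) * x := by
    rw [Finset.sum_congr rfl (fun g _ => hterm g), Finset.sum_add_distrib, hoddsum, zero_add,
      ← Finset.sum_filter, Finset.sum_const, nsmul_eq_mul]
  -- an involution exists
  have : Fact (Nat.Prime 2) := ⟨Nat.prime_two⟩
  obtain ⟨t₀, ht₀⟩ := exists_prime_orderOf_dvd_card' (G := G) 2 (even_iff_two_dvd.mp heven)
  have hipos : 0 < (Finset.univ.filter (fun g : G => orderOf g = 2)).card :=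
    Finset.card_pos.mpr ⟨t₀, Finset.mem_filter.mpr ⟨Finset.mem_univ _, ht₀⟩⟩
  obtain ⟨ht, hz⟩ := fs_indicator' χ
  rw [hFS] at ht
  have hν : (Finset.univ.filter (fun g : G => orderOf g = 2)).card * x = Nat.card G := by
    have hGpos : 0 < Nat.card G := Nat.card_pos
    rcases ht with h | h | h
    · exfalso
      rcases mul_eq_zero.mp h with h | h
      · exact absurd (inv_eq_zero.mp h) hne
      · have h3 : (((Finset.univ.filter (fun g : G => orderOf g = 2)).card * x : ℕ) : ℂ) = 0 := by
          push_cast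
          exact h
        have h4 : (Finset.univ.filter (fun g : G => orderOf g = 2)).card * x = 0 := by
          exact_mod_cast h3
        have h5 := Nat.mul_pos hipos hxpos
        omega
    · have h3 : (((Finset.univ.filter (fun g : G => orderOf g = 2)).card * x : ℕ) : ℂ)
          = (Nat.card G : ℂ) := by
        push_cast
        field_simp at h
        exact h
      exact_mod_cast h3
    · exfalso
      have h3 : (((Finset.univ.filter (fun g : G => orderOf g = 2)).card * x + Nat.card G : ℕ) : ℂ)
          = 0 := by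
        push_cast
        field_simp at h
        linear_combination h
      have h4 : (Finset.univ.filter (fun g : G => orderOf g = 2)).card * x + Nat.card G = 0 := by
        exact_mod_cast h3
      omega
  -- centralizers of involutions
  have hcent : ∀ t : G, orderOf t = 2 → ∃ m : ℕ,
      x = m * Nat.card (Subgroup.centralizer ({t} : Set G)) := by
    intro t ht2
    have : Fintype (Subgroup.centralizer ({t} : Set G)) := Fintype.ofFinite _
    obtain ⟨m, hm⟩ := classInner_isCharacter_nat
      (IsCharacter.restrict (isCharacter_of_isIrrCharacter χ.2) (Subgroup.centralizer ({t} : Set G)))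
      (isCharacter_of_isIrrCharacter (isIrrCharacter_one (G := Subgroup.centralizer ({t} : Set G))))
    rw [classInner_def] at hm
    simp only [map_one, mul_one] at hm
    have hs : ∑ c : Subgroup.centralizer ({t} : Set G), (χ : G → ℂ) (c : G) = x := by
      rw [Finset.sum_eq_single (1 : Subgroup.centralizer ({t} : Set G))]
      · rw [Subgroup.coe_one, hx1]
      · intro c _ hc
        apply hK t (c : G) ht2 (Subgroup.mem_centralizer_singleton_iff.mp c.2)
        intro h1
        exact hc (Subtype.ext h1)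
      · intro h
        exact absurd (Finset.mem_univ _) h
    rw [hs] at hm
    refine ⟨m, ?_⟩
    have hc0 : (Nat.card (Subgroup.centralizer ({t} : Set G)) : ℂ) ≠ 0 := by
      exact_mod_cast Nat.card_pos.ne'
    have h3 : ((x : ℕ) : ℂ) = ((m * Nat.card (Subgroup.centralizer ({t} : Set G)) : ℕ) : ℂ) := by
      push_cast
      field_simp at hm
      linear_combination hm
    exact_mod_cast h3
  have hclass : ∀ t : G, orderOf t = 2 →
      Finset.univ.filter (fun g : G => ∃ y : G, y * t * y⁻¹ = g)
        = Finset.univ.filter (fun g : G => orderOf g = 2) ∧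
      Nat.card (Subgroup.centralizer ({t} : Set G)) = x := by
    intro t ht2
    obtain ⟨m, hm⟩ := hcent t ht2
    have hcl := card_conj_class_mul t
    have hsub : Finset.univ.filter (fun g : G => ∃ y : G, y * t * y⁻¹ = g)
        ⊆ Finset.univ.filter (fun g : G => orderOf g = 2) := by
      intro g hg
      rw [Finset.mem_filter] at hg ⊢
      obtain ⟨y, hy⟩ := hg.2
      refine ⟨Finset.mem_univ _, ?_⟩
      rw [← hy, orderOf_conj_eq', ht2]
    have hle := Finset.card_le_card hsub
    have hcpos : 0 < Nat.card (Subgroup.centralizer ({t} : Set G)) := Nat.card_pos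
    have hmpos : 0 < m := by
      rcases Nat.eq_zero_or_pos m with h0 | h0
      · rw [h0, zero_mul] at hm
        omega
      · exact h0
    have h4 : (Finset.univ.filter (fun g : G => ∃ y : G, y * t * y⁻¹ = g)).card
        = (Finset.univ.filter (fun g : G => orderOf g = 2)).card * m := by
      apply Nat.eq_of_mul_eq_mul_right hcpos
      rw [hcl, ← hν, hm]
      ring
    have hm1 : m = 1 := by
      by_contra hne1
      have hm2 : 2 ≤ m := by omega
      have h5 : (Finset.univ.filter (fun g : G => orderOf g = 2)).card * 2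
          ≤ (Finset.univ.filter (fun g : G => orderOf g = 2)).card * m :=
        Nat.mul_le_mul_left _ hm2
      omega
    rw [hm1, mul_one] at h4
    rw [hm1, one_mul] at hm
    exact ⟨Finset.eq_of_subset_of_card_le hsub (by omega), hm.symm⟩
  refine ⟨?_, ?_, ?_⟩
  · intro s t hs ht2
    rw [isConj_iff]
    have h1 : t ∈ Finset.univ.filter (fun g : G => orderOf g = 2) :=
      Finset.mem_filter.mpr ⟨Finset.mem_univ _, ht2⟩
    rw [← (hclass s hs).1, Finset.mem_filter] at h1
    exact h1.2
  · intro s hs
    have hcs := (hclass s hs).2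
    refine ⟨hcs, ?_⟩
    rw [hcs]
    have hidx : x * (Subgroup.centralizer ({s} : Set G)).index = Nat.card G := by
      rw [← hcs, mul_comm]
      exact Subgroup.index_mul_card _
    rw [Nat.coprime_iff_gcd_eq_one]
    by_contra hgcd
    obtain ⟨p, hpp, hpg⟩ := Nat.exists_prime_and_dvd hgcd
    have hpx : p ∣ x := dvd_trans hpg (Nat.gcd_dvd_left _ _)
    have hpi : p ∣ (Subgroup.centralizer ({s} : Set G)).index :=
      dvd_trans hpg (Nat.gcd_dvd_right _ _)
    by_cases hp2 : p = 2
    · subst hp2
      exact hnd 2 hpp h2 _ hidx hpi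
    · have : Fact p.Prime := ⟨hpp⟩
      have hpc : p ∣ Nat.card (Subgroup.centralizer ({s} : Set G)) := by
        rw [hcs]
        exact hpx
      obtain ⟨z, hz⟩ := exists_prime_orderOf_dvd_card' (G := Subgroup.centralizer ({s} : Set G))
        p hpc
      have hz' : orderOf (z : G) = p := by rw [Subgroup.orderOf_coe, hz]
      have hex := h2p s (z : G) hs (Subgroup.mem_centralizer_singleton_iff.mp z.2) p hpp hp2
        (by rw [hz'])
      exact hnd p hpp (hp p hpp hp2 hex) _ hidx hpi
  · rw [hFS]
    have h3 : (((Finset.univ.filter (fun g : G => orderOf g = 2)).card * x : ℕ) : ℂ)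
        = (Nat.card G : ℂ) := by
      exact_mod_cast congrArg (Nat.cast (R := ℂ)) hν
    push_cast at h3
    rw [h3]
    field_simp

end invdef

end Cfsg.Agent.Lib.Helper25
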