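import Mathlib
import Cfsg.Agent.Lib.Helper25.PIndex2

set_option autoImplicit false

/-!
Brauer pairs of a normal subgroup `N` and of the group: the centralizer in `N` of a subgroup
`R'` of `N` inside the centralizer of its image `R`, conjugation by the normalizer of `R`,
and the Brauer central characters.
-/

namespace Cfsg.Agent.Lib.Helper25

open Cfsg Cfsg.Agent.Lib.Helper2 Cfsg.Agent.Lib.Helper8

section nilext

variable {G : Type*} [Group G]

theorem mem_centralizer_sub_iff (N : Subgroup G) (R' : Subgroup N) (R : Subgroup G)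
    (hR : ∀ n : N, n ∈ R' ↔ (n : G) ∈ R) (hRN : R ≤ N) (n : N) :
    n ∈ Subgroup.centralizer (R' : Set N) ↔ (n : G) ∈ Subgroup.centralizer (R : Set G) := by
  rw [Subgroup.mem_centralizer_iff, Subgroup.mem_centralizer_iff]
  constructor
  · intro h r hr
    have := h ⟨r, hRN hr⟩ ((hR _).mpr hr)
    exact congrArg Subtype.val this
  · intro h r hr
    apply Subtype.ext
    exact h (r : G) ((hR r).mp hr)

theorem mem_normalizer_sub_iff (N : Subgroup G) [hN : N.Normal] (R' : Subgroup N)
    (R : Subgroup G)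
    (hR : ∀ n : N, n ∈ R' ↔ (n : G) ∈ R) (hRN : R ≤ N) (n : N) :
    n ∈ Subgroup.normalizer (R' : Set N) ↔ (n : G) ∈ Subgroup.normalizer (R : Set G) := by
  rw [Subgroup.mem_normalizer_iff, Subgroup.mem_normalizer_iff]
  constructor
  · intro h u
    by_cases hu : u ∈ N
    · have := h ⟨u, hu⟩
      rw [hR, hR] at this
      exact this
    · constructor
      · intro hu'
        exact absurd (hRN hu') hu
      · intro hu'
        exfalso
        apply hu
        have h1 := hN.conj_mem' _ (hRN hu') (n : G)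
        have e : (n : G)⁻¹ * ((n : G) * u * (n : G)⁻¹) * (n : G) = u := by group
        rw [e] at h1
        exact h1
  · intro h u
    rw [hR, hR]
    exact h (u : G)

/-- the centralizer of `R'` in `N`, inside the centralizer of `R` -/
def centSubIso (N : Subgroup G) (R' : Subgroup N) (R : Subgroup G)
    (hK : ∀ n : N, n ∈ Subgroup.centralizer (R' : Set N)
      ↔ (n : G) ∈ Subgroup.centralizer (R : Set G)) :
    ↥(N.subgroupOf (Subgroup.centralizer (R : Set G)))
      ≃* ↥(Subgroup.centralizer (R' : Set N)) where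
  toFun k := ⟨⟨((k : Subgroup.centralizer (R : Set G)) : G), Subgroup.mem_subgroupOf.mp k.2⟩,
    (hK _).mpr k.1.2⟩
  invFun k := ⟨⟨((k : N) : G), (hK _).mp k.2⟩, Subgroup.mem_subgroupOf.mpr k.1.2⟩
  left_inv _ := rfl
  right_inv _ := rfl
  map_mul' _ _ := rfl

/-- conjugation by an element normalizing `R`, as an automorphism of the centralizer of `R'`
in `N` -/
def centAut (N : Subgroup G) [hN : N.Normal] (R' : Subgroup N) (R : Subgroup G)
    (hK : ∀ n : N, n ∈ Subgroup.centralizer (R' : Set N)
      ↔ (n : G) ∈ Subgroup.centralizer (R : Set G))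
    (y : ↥(Subgroup.normalizer (R : Set G))) :
    ↥(Subgroup.centralizer (R' : Set N)) ≃* ↥(Subgroup.centralizer (R' : Set N)) where
  toFun k := ⟨⟨(y : G) * ((k : N) : G) * (y : G)⁻¹, hN.conj_mem _ k.1.2 _⟩,
    (hK _).mpr ((conj_mem_centralizer_iff y.2 _).mpr ((hK _).mp k.2))⟩
  invFun k := ⟨⟨(y : G)⁻¹ * ((k : N) : G) * (y : G)⁻¹⁻¹, hN.conj_mem _ k.1.2 _⟩,
    (hK _).mpr ((conj_mem_centralizer_iff (inv_mem y.2) _).mpr ((hK _).mp k.2))⟩
  left_inv k := by
    apply Subtype.ext
    apply Subtype.ext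
    simp only
    group
  right_inv k := by
    apply Subtype.ext
    apply Subtype.ext
    simp only
    group
  map_mul' a b := by
    apply Subtype.ext
    apply Subtype.ext
    simp only [Subgroup.coe_mul]
    group

theorem centAut_coe (N : Subgroup G) [hN : N.Normal] (R' : Subgroup N) (R : Subgroup G)
    (hK : ∀ n : N, n ∈ Subgroup.centralizer (R' : Set N)
      ↔ (n : G) ∈ Subgroup.centralizer (R : Set G))
    (y : ↥(Subgroup.normalizer (R : Set G))) (k : ↥(Subgroup.centralizer (R' : Set N))) :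
    (((centAut N R' R hK y k : ↥(Subgroup.centralizer (R' : Set N))) : N) : G)
      = (y : G) * ((k : N) : G) * (y : G)⁻¹ := rfl

theorem centAut_symm_coe (N : Subgroup G) [hN : N.Normal] (R' : Subgroup N) (R : Subgroup G)
    (hK : ∀ n : N, n ∈ Subgroup.centralizer (R' : Set N)
      ↔ (n : G) ∈ Subgroup.centralizer (R : Set G))
    (y : ↥(Subgroup.normalizer (R : Set G))) (k : ↥(Subgroup.centralizer (R' : Set N))) :
    ((((centAut N R' R hK y).symm k : ↥(Subgroup.centralizer (R' : Set N))) : N) : G)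
      = (y : G)⁻¹ * ((k : N) : G) * (y : G) := by
  change (y : G)⁻¹ * ((k : N) : G) * (y : G)⁻¹⁻¹ = _
  rw [inv_inv]

variable [Finite G]

theorem isoIrr_centAut_one (N : Subgroup G) [hN : N.Normal] (R' : Subgroup N) (R : Subgroup G)
    (hK : ∀ n : N, n ∈ Subgroup.centralizer (R' : Set N)
      ↔ (n : G) ∈ Subgroup.centralizer (R : Set G))
    (ξ : IrrCharacter ↥(Subgroup.centralizer (R' : Set N))) :
    isoIrr (centAut N R' R hK 1) ξ = ξ := by
  apply Subtype.ext
  funext k
  rw [isoIrr_apply]
  refine congrArg _ ?_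
  apply Subtype.ext
  apply Subtype.ext
  rw [centAut_symm_coe]
  simp

theorem isoIrr_centAut_mul (N : Subgroup G) [hN : N.Normal] (R' : Subgroup N) (R : Subgroup G)
    (hK : ∀ n : N, n ∈ Subgroup.centralizer (R' : Set N)
      ↔ (n : G) ∈ Subgroup.centralizer (R : Set G))
    (y₁ y₂ : ↥(Subgroup.normalizer (R : Set G)))
    (ξ : IrrCharacter ↥(Subgroup.centralizer (R' : Set N))) :
    isoIrr (centAut N R' R hK (y₁ * y₂)) ξ
      = isoIrr (centAut N R' R hK y₁) (isoIrr (centAut N R' R hK y₂) ξ) := by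
  apply Subtype.ext
  funext k
  rw [isoIrr_apply, isoIrr_apply, isoIrr_apply]
  refine congrArg _ ?_
  apply Subtype.ext
  apply Subtype.ext
  rw [centAut_symm_coe, centAut_symm_coe, centAut_symm_coe]
  simp only [Subgroup.coe_mul]
  group

/-- a block mapped into itself at one member is mapped into itself -/
theorem isoIrr_mem_of_mem {p : ℕ} {M : Ideal AlgInt} (hM : IsPModular p M)
    {K : Type*} [Group K] [Finite K] (σ : K ≃* K) {g : Set (IrrCharacter K)}
    (hg : IsPBlock M g) (ξ₀ : IrrCharacter K) (hξ₀ : ξ₀ ∈ g) (h : isoIrr σ ξ₀ ∈ g)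
    (ξ : IrrCharacter K) (hξ : ξ ∈ g) : isoIrr σ ξ ∈ g := by
  have h1 : isoIrr σ '' g = g :=
    isPBlock_eq_of_mem hM (isPBlock_image_isoIrr σ hg) hg (Set.mem_image_of_mem _ hξ₀) h
  rw [← h1]
  exact Set.mem_image_of_mem _ hξ

theorem isoIrr_centAut_pow (N : Subgroup G) [hN : N.Normal] (R' : Subgroup N) (R : Subgroup G)
    (hK : ∀ n : N, n ∈ Subgroup.centralizer (R' : Set N)
      ↔ (n : G) ∈ Subgroup.centralizer (R : Set G))
    (y : ↥(Subgroup.normalizer (R : Set G)))
    (g : Set (IrrCharacter ↥(Subgroup.centralizer (R' : Set N))))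
    (h : ∀ ξ ∈ g, isoIrr (centAut N R' R hK y) ξ ∈ g) (m : ℕ) :
    ∀ ξ ∈ g, isoIrr (centAut N R' R hK (y ^ m)) ξ ∈ g := by
  induction m with
  | zero =>
    intro ξ hξ
    rw [pow_zero, isoIrr_centAut_one]
    exact hξ
  | succ m ih =>
    intro ξ hξ
    rw [pow_succ, isoIrr_centAut_mul]
    exact ih _ (h ξ hξ)

/-- stabilizing a block of the centralizer in `N`, in terms of the conjugation automorphism -/
theorem stabilizesBlock_iff_centAut (N : Subgroup G) [hN : N.Normal] (R' : Subgroup N)
    (R : Subgroup G)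
    (hK : ∀ n : N, n ∈ Subgroup.centralizer (R' : Set N)
      ↔ (n : G) ∈ Subgroup.centralizer (R : Set G))
    (n : N) (hn : (n : G) ∈ Subgroup.normalizer (R : Set G))
    (hn' : n ∈ Subgroup.normalizer (R' : Set N))
    (g : Set (IrrCharacter ↥(Subgroup.centralizer (R' : Set N)))) :
    StabilizesBlock (Subgroup.centralizer (R' : Set N)) g n
      ↔ ∀ ξ ∈ g, isoIrr (centAut N R' R hK ⟨(n : G), hn⟩) ξ ∈ g := by
  classical
  have : Fintype ↥(Subgroup.centralizer (R' : Set N)) := Fintype.ofFinite _
  let n' : ↥(Subgroup.normalizer ((Subgroup.centralizer (R' : Set N) : Subgroup N) : Set N)) :=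
    ⟨n, normalizer_le_normalizer_centralizer R' hn'⟩
  have key : ∀ ξ : IrrCharacter ↥(Subgroup.centralizer (R' : Set N)),
      nIrr (Subgroup.centralizer (R' : Set N)) n' ξ
        = isoIrr (centAut N R' R hK ⟨(n : G), hn⟩) ξ := by
    intro ξ
    apply Subtype.ext
    funext k
    rw [nIrr_apply, isoIrr_apply]
    refine congrArg _ ?_
    apply Subtype.ext
    apply Subtype.ext
    rw [centAut_symm_coe, normAut_coe]
    simp [n']
  have h0 := stabilizesBlock_iff (Subgroup.centralizer (R' : Set N)) n' g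
  constructor
  · intro h ξ hξ
    rw [← key ξ]
    exact (h0.mp h) ⟨ξ, hξ, rfl⟩
  · intro h
    apply h0.mpr
    rintro _ ⟨ξ, hξ, rfl⟩
    rw [key ξ]
    exact h ξ hξ


theorem classInner_comp_mulEquiv' {K : Type*} [Group K] [Fintype K] (τ : K ≃* K)
    (a b : K → ℂ) : classInner (a ∘ τ) (b ∘ τ) = classInner a b := by
  unfold classInner
  congr 1
  exact Fintype.sum_equiv τ.toEquiv _ _ (fun k => rfl)

/-- the conjugate under the centralizer of `R`, in terms of the conjugation automorphism -/
theorem isoIrr_conjIrr (N : Subgroup G) [hN : N.Normal] (R' : Subgroup N) (R : Subgroup G)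
    (hK : ∀ n : N, n ∈ Subgroup.centralizer (R' : Set N)
      ↔ (n : G) ∈ Subgroup.centralizer (R : Set G))
    [Fintype ↥(N.subgroupOf (Subgroup.centralizer (R : Set G)))]
    (ξ₂ : IrrCharacter ↥(N.subgroupOf (Subgroup.centralizer (R : Set G))))
    (h : ↥(Subgroup.centralizer (R : Set G))) :
    isoIrr (centSubIso N R' R hK)
        (conjIrr (N.subgroupOf (Subgroup.centralizer (R : Set G))) ξ₂ h)
      = isoIrr (centAut N R' R hK
          ⟨(h : G)⁻¹, inv_mem (Subgroup.centralizer_le_normalizer _ h.2)⟩)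
          (isoIrr (centSubIso N R' R hK) ξ₂) := by
  apply Subtype.ext
  funext k
  rw [isoIrr_apply, isoIrr_apply, isoIrr_apply, conjIrr_apply]
  refine congrArg _ ?_
  apply Subtype.ext
  apply Subtype.ext
  change (h : G) * _ * (h : G)⁻¹ = ((((centAut N R' R hK _).symm k :
    ↥(Subgroup.centralizer (R' : Set N))) : N) : G)
  rw [centAut_symm_coe]
  simp only [inv_inv]
  rfl

/-- conjugation by an element normalizing `R` carries constituents to constituents -/
theorem constituent_conj (N : Subgroup G) [hN : N.Normal] (R' : Subgroup N) (R : Subgroup G)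
    (hK : ∀ n : N, n ∈ Subgroup.centralizer (R' : Set N)
      ↔ (n : G) ∈ Subgroup.centralizer (R : Set G))
    [Fintype ↥(Subgroup.centralizer (R : Set G))]
    [Fintype ↥(N.subgroupOf (Subgroup.centralizer (R : Set G)))]
    (y : ↥(Subgroup.normalizer (R : Set G)))
    (ζ : IrrCharacter ↥(Subgroup.centralizer (R : Set G)))
    (ξ₁ : IrrCharacter ↥(Subgroup.centralizer (R' : Set N)))
    (he : classInner (fun k : ↥(N.subgroupOf (Subgroup.centralizer (R : Set G))) =>
        (ζ : ↥(Subgroup.centralizer (R : Set G)) → ℂ) k)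
      (isoIrr (centSubIso N R' R hK).symm ξ₁ :
        ↥(N.subgroupOf (Subgroup.centralizer (R : Set G))) → ℂ) ≠ 0) :
    classInner (fun k : ↥(N.subgroupOf (Subgroup.centralizer (R : Set G))) =>
        (nIrr (Subgroup.centralizer (R : Set G))
          (Subgroup.inclusion (normalizer_le_normalizer_centralizer R) y) ζ :
          ↥(Subgroup.centralizer (R : Set G)) → ℂ) k)
      (isoIrr (centSubIso N R' R hK).symm (isoIrr (centAut N R' R hK y) ξ₁) :
        ↥(N.subgroupOf (Subgroup.centralizer (R : Set G))) → ℂ) ≠ 0 := by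
  let φ := centSubIso N R' R hK
  let τ : ↥(N.subgroupOf (Subgroup.centralizer (R : Set G)))
      ≃* ↥(N.subgroupOf (Subgroup.centralizer (R : Set G))) :=
    φ.trans ((centAut N R' R hK y).symm.trans φ.symm)
  have e1 : (fun k : ↥(N.subgroupOf (Subgroup.centralizer (R : Set G))) =>
        (nIrr (Subgroup.centralizer (R : Set G))
          (Subgroup.inclusion (normalizer_le_normalizer_centralizer R) y) ζ :
          ↥(Subgroup.centralizer (R : Set G)) → ℂ) k)
      = (fun k : ↥(N.subgroupOf (Subgroup.centralizer (R : Set G))) =>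
        (ζ : ↥(Subgroup.centralizer (R : Set G)) → ℂ) k) ∘ τ := by
    funext k
    rw [nIrr_apply]
    change _ = (ζ : ↥(Subgroup.centralizer (R : Set G)) → ℂ) ((τ k : _) : _)
    refine congrArg _ ?_
    apply Subtype.ext
    rw [normAut_coe]
    change _ = ((((centAut N R' R hK y).symm (φ k) :
      ↥(Subgroup.centralizer (R' : Set N))) : N) : G)
    rw [centAut_symm_coe]
    simp
    rfl
  have e2 : (isoIrr (centSubIso N R' R hK).symm (isoIrr (centAut N R' R hK y) ξ₁) :
        ↥(N.subgroupOf (Subgroup.centralizer (R : Set G))) → ℂ)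
      = (isoIrr (centSubIso N R' R hK).symm ξ₁ :
        ↥(N.subgroupOf (Subgroup.centralizer (R : Set G))) → ℂ) ∘ τ := by
    funext k
    rfl
  rw [e1, e2, classInner_comp_mulEquiv']
  exact he


end nilext

section nilext2

variable {G : Type*} [Group G] [Fintype G] {p : ℕ} {M : Ideal AlgInt}

/-- the Brauer central character of the idempotent of a stable block `c` of `N` at a
character `ζ` of the centralizer of `R` is the Brauer central character of `c` at a
constituent of `ζ` on the centralizer in `N` -/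
theorem brauerOmega_of_over (hM : IsPModular p M) (N : Subgroup G) [hN : N.Normal]
    (R' : Subgroup N) (R : Subgroup G)
    (hK : ∀ n : N, n ∈ Subgroup.centralizer (R' : Set N)
      ↔ (n : G) ∈ Subgroup.centralizer (R : Set G))
    (c : Set (IrrCharacter N)) (hc : IsPBlock M c) (hst : ∀ x : G, StabilizesBlock N c x)
    [Fintype ↥(N.subgroupOf (Subgroup.centralizer (R : Set G)))]
    (ζ : IrrCharacter ↥(Subgroup.centralizer (R : Set G)))
    (ξ₁ : IrrCharacter ↥(Subgroup.centralizer (R' : Set N)))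
    (he : classInner (fun k : ↥(N.subgroupOf (Subgroup.centralizer (R : Set G))) =>
        (ζ : ↥(Subgroup.centralizer (R : Set G)) → ℂ) k)
      (isoIrr (centSubIso N R' R hK).symm ξ₁ :
        ↥(N.subgroupOf (Subgroup.centralizer (R : Set G))) → ℂ) ≠ 0) :
    brauerOmega R (subgroupBlockCoeff N c) (ζ : ↥(Subgroup.centralizer (R : Set G)) → ℂ)
      = brauerOmega R' (blockCoeff c) (ξ₁ : ↥(Subgroup.centralizer (R' : Set N)) → ℂ) := by
  classical
  have : Fintype ↥(Subgroup.centralizer (R : Set G)) := Fintype.ofFinite _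
  have : Fintype ↥(Subgroup.centralizer (R' : Set N)) := Fintype.ofFinite _
  have : Fintype N := Fintype.ofFinite _
  let φ := centSubIso N R' R hK
  let f₂ : ↥(N.subgroupOf (Subgroup.centralizer (R : Set G))) → ℂ :=
    fun k => blockCoeff c ((φ k : ↥(Subgroup.centralizer (R' : Set N))) : N)
  have hf₂ : ∀ (h : ↥(Subgroup.centralizer (R : Set G)))
      (k : ↥(N.subgroupOf (Subgroup.centralizer (R : Set G)))),
      f₂ ((MulAut.conjNormal h : MulAut ↥(N.subgroupOf (Subgroup.centralizer (R : Set G)))) k)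
        = f₂ k := by
    intro h k
    exact blockCoeff_conjNormal_of_stable hM N c hc hst (h : G) (φ k : N)
  have e1 : (fun x : ↥(Subgroup.centralizer (R : Set G)) => subgroupBlockCoeff N c (x : G))
      = extendByZero (N.subgroupOf (Subgroup.centralizer (R : Set G))) f₂ := by
    funext x
    rw [subgroupBlockCoeff_eq]
    by_cases hx : (x : G) ∈ N
    · have hx' : x ∈ N.subgroupOf (Subgroup.centralizer (R : Set G)) :=
        Subgroup.mem_subgroupOf.mpr hx
      rw [extendByZero_of_mem N _ hx, extendByZero_of_mem _ _ hx']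
      rfl
    · have hx' : x ∉ N.subgroupOf (Subgroup.centralizer (R : Set G)) :=
        fun h => hx (Subgroup.mem_subgroupOf.mp h)
      rw [extendByZero_of_not_mem N _ hx, extendByZero_of_not_mem _ _ hx']
  rw [brauerOmega_eq', brauerOmega_eq', e1,
    omegaFun_extend_of_constituent (N.subgroupOf (Subgroup.centralizer (R : Set G))) ζ
      (isoIrr φ.symm ξ₁) he f₂ hf₂]
  unfold omegaFun
  have h1 : (isoIrr φ.symm ξ₁ : ↥(N.subgroupOf (Subgroup.centralizer (R : Set G))) → ℂ) 1
      = (ξ₁ : ↥(Subgroup.centralizer (R' : Set N)) → ℂ) 1 := by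
    rw [isoIrr_apply]
    refine congrArg _ ?_
    exact map_one _
  rw [h1]
  congr 1
  exact Fintype.sum_equiv φ.toEquiv _ _ (fun k => rfl)

end nilext2

end Cfsg.Agent.Lib.Helper25
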