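import Mathlib
import Cfsg.Agent.Lib.Helper25.NilExt

set_option autoImplicit false

/-!
A stable block `c` of a normal subgroup `N` of `p`-power index and the block `B` of the group
with the same idempotent: `c` is nilpotent if and only if `B` is nilpotent.
-/

namespace Cfsg.Agent.Lib.Helper25

open Cfsg Cfsg.Agent.Lib.Helper2 Cfsg.Agent.Lib.Helper8

section grp

variable {G : Type*} [Group G]

theorem mem_normalizer_inf_normal (Q N : Subgroup G) [hN : N.Normal] {x : G}
    (hx : x ∈ Subgroup.normalizer (Q : Set G)) :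
    x ∈ Subgroup.normalizer ((Q ⊓ N : Subgroup G) : Set G) := by
  rw [Subgroup.mem_normalizer_iff]
  intro u
  constructor
  · rintro ⟨h1, h2⟩
    exact ⟨(Subgroup.mem_normalizer_iff.mp hx u).mp h1, hN.conj_mem _ h2 _⟩
  · rintro ⟨h1, h2⟩
    refine ⟨(Subgroup.mem_normalizer_iff.mp hx u).mpr h1, ?_⟩
    have h3 := hN.conj_mem' _ h2 x
    have e : x⁻¹ * (x * u * x⁻¹) * x = u := by group
    rw [e] at h3
    exact h3

/-- a `p`-regular element centralizing `R ≤ Q` and acting trivially on `Q` modulo `R`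
centralizes the `p`-group `Q` -/
theorem mem_centralizer_of_regular_of_comm_sub [Finite G] {p : ℕ} [Fact p.Prime]
    (Q R : Subgroup G) (hQ : IsPGroup p Q) (hRQ : R ≤ Q) (x : G) (hreg : ¬ p ∣ orderOf x)
    (hxR : x ∈ Subgroup.centralizer (R : Set G))
    (h : ∀ v ∈ Q, v⁻¹ * (x * v * x⁻¹) ∈ R) : x ∈ Subgroup.centralizer (Q : Set G) := by
  rw [Subgroup.mem_centralizer_iff]
  intro v hv
  set r := v⁻¹ * (x * v * x⁻¹) with hr
  have hrR : r ∈ R := h v hv
  have hcomm : r * x = x * r := Subgroup.mem_centralizer_iff.mp hxR r hrR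
  have hcomm' : Commute x r := hcomm.symm
  have hpow : ∀ m : ℕ, x ^ m * v * (x ^ m)⁻¹ = v * r ^ m := by
    intro m
    induction m with
    | zero => simp
    | succ m ih =>
      have e1 : x ^ (m + 1) * v * (x ^ (m + 1))⁻¹ = x * (x ^ m * v * (x ^ m)⁻¹) * x⁻¹ := by
        rw [pow_succ']
        group
      have e2 : x * r ^ m = r ^ m * x := (hcomm'.pow_right m).eq
      rw [e1, ih]
      calc x * (v * r ^ m) * x⁻¹ = (x * v * x⁻¹) * (x * r ^ m) * x⁻¹ := by group
        _ = (x * v * x⁻¹) * (r ^ m * x) * x⁻¹ := by rw [e2]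
        _ = v * (v⁻¹ * (x * v * x⁻¹)) * r ^ m := by group
        _ = v * r ^ (m + 1) := by rw [← hr, pow_succ', mul_assoc]
  have h1 := hpow (orderOf x)
  rw [pow_orderOf_eq_one] at h1
  have h2 : r ^ orderOf x = 1 := by
    have : v * r ^ orderOf x = v * 1 := by
      rw [← h1]
      simp
    exact mul_left_cancel this
  obtain ⟨k, hk⟩ := hQ ⟨r, hRQ hrR⟩
  have h3 : r ^ (p ^ k) = 1 := by
    have := congrArg Subtype.val hk
    simpa using this
  have hd1 : orderOf r ∣ orderOf x := orderOf_dvd_of_pow_eq_one h2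
  have hd2 : orderOf r ∣ p ^ k := orderOf_dvd_of_pow_eq_one h3
  have hcop : Nat.Coprime (p ^ k) (orderOf x) :=
    Nat.Coprime.pow_left k ((Nat.Prime.coprime_iff_not_dvd (Fact.out : p.Prime)).mpr hreg)
  have h4 : orderOf r = 1 := Nat.eq_one_of_dvd_coprimes hcop hd2 hd1
  have h5 : r = 1 := orderOf_eq_one_iff.mp h4
  have h6 : x * v * x⁻¹ = v := by
    have : v * r = v := by rw [h5, mul_one]
    rw [hr] at this
    calc x * v * x⁻¹ = v * (v⁻¹ * (x * v * x⁻¹)) := by group
      _ = v := this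
  calc v * x = (x * v * x⁻¹) * x := by rw [h6]
    _ = x * v := by group

/-- an exponent fixing the `p`-regular element `x` and making `y` `p`-regular -/
theorem exists_pow_regular [Finite G] {p : ℕ} [Fact p.Prime] (x y : G)
    (hreg : ¬ p ∣ orderOf x) : ∃ e : ℕ, x ^ e = x ∧ ¬ p ∣ orderOf (y ^ e) := by
  have hp : p.Prime := Fact.out
  have hy0 : orderOf y ≠ 0 := (orderOf_pos y).ne'
  obtain ⟨a, t, ht, hat⟩ := Nat.exists_eq_pow_mul_and_not_dvd hy0 p hp.ne_one
  have hcop : Nat.Coprime (p ^ a) (orderOf x) :=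
    Nat.Coprime.pow_left a ((Nat.Prime.coprime_iff_not_dvd hp).mpr hreg)
  have hφ : 0 < Nat.totient (orderOf x) := Nat.totient_pos.mpr (orderOf_pos x)
  refine ⟨(p ^ a) ^ Nat.totient (orderOf x), ?_, ?_⟩
  · have h1 : (p ^ a) ^ Nat.totient (orderOf x) ≡ 1 [MOD orderOf x] :=
      Nat.ModEq.pow_totient hcop
    have h2 := pow_eq_pow_iff_modEq.mpr h1
    rw [h2, pow_one]
  · have hd : p ^ a ∣ (p ^ a) ^ Nat.totient (orderOf x) := dvd_pow_self _ hφ.ne'
    obtain ⟨u, hu⟩ := hd
    have h1 : (y ^ ((p ^ a) ^ Nat.totient (orderOf x))) ^ t = 1 := by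
      rw [← pow_mul, hu]
      have : p ^ a * u * t = orderOf y * u := by rw [hat]; ring
      rw [this, pow_mul, pow_orderOf_eq_one, one_pow]
    have h2 : orderOf (y ^ ((p ^ a) ^ Nat.totient (orderOf x))) ∣ t :=
      orderOf_dvd_of_pow_eq_one h1
    intro h3
    exact ht (h3.trans h2)

/-- powers of `h * x` for `x` normalizing `R` and `h` centralizing `R` -/
theorem pow_mul_mem_centralizer (R : Subgroup G) (x h : G)
    (hx : x ∈ Subgroup.normalizer (R : Set G)) (hh : h ∈ Subgroup.centralizer (R : Set G))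
    (m : ℕ) : ∃ h' ∈ Subgroup.centralizer (R : Set G), (h * x) ^ m = h' * x ^ m := by
  induction m with
  | zero => exact ⟨1, Subgroup.one_mem _, by simp⟩
  | succ m ih =>
    obtain ⟨h', hh', e⟩ := ih
    refine ⟨h' * (x ^ m * h * (x ^ m)⁻¹), Subgroup.mul_mem _ hh'
      ((conj_mem_centralizer_iff (Subgroup.pow_mem _ hx m) h).mpr hh), ?_⟩
    rw [pow_succ, e, pow_succ]
    group

end grp

section main

variable {G : Type*} [Group G] [Fintype G] {p : ℕ} {M : Ideal AlgInt}

theorem index_subgroupOf_pow [Fact p.Prime] (N : Subgroup G) [hN : N.Normal]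
    (hidx : ∃ k : ℕ, N.index = p ^ k) (H : Subgroup G) :
    ∃ k : ℕ, (N.subgroupOf H).index = p ^ k := by
  obtain ⟨k, hk⟩ := hidx
  have h1 : (N.subgroupOf H).index ∣ N.index := Subgroup.relIndex_dvd_index_of_normal N H
  rw [hk] at h1
  obtain ⟨j, -, hj⟩ := (Nat.dvd_prime_pow (Fact.out : p.Prime)).mp h1
  exact ⟨j, hj⟩

/-- if the block `B` of the group with the idempotent of the stable block `c` of the normal
subgroup `N` of `p`-power index is nilpotent, then `c` is nilpotent -/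
theorem nilpotent_down [Fact p.Prime] (hM : IsPModular p M) (N : Subgroup G) [hN : N.Normal]
    (hidx : ∃ k : ℕ, N.index = p ^ k) (c : Set (IrrCharacter N)) (hc : IsPBlock M c)
    (hst : ∀ x : G, StabilizesBlock N c x) (B : Set (IrrCharacter G)) (hB : IsPBlock M B)
    (hBc : ∀ g : G, blockCoeff B g = subgroupBlockCoeff N c g)
    (hnil : IsNilpotentBlock p M B) : IsNilpotentBlock p M c := by
  classical
  have hpr := isPrime_of_isPModular hM
  have : Fintype (IrrCharacter G) := Fintype.ofFinite _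
  refine ⟨hc, ?_⟩
  intro R' g₁ hpair n hnN hstab hreg
  obtain ⟨⟨hR'p, hg₁⟩, -, hom⟩ := hpair
  have hR : ∀ n : N, n ∈ R' ↔ (n : G) ∈ R'.map N.subtype := fun n =>
    (Subgroup.mem_map_iff_mem (Subgroup.subtype_injective N)).symm
  have hRN : R'.map N.subtype ≤ N := Subgroup.map_subtype_le R'
  have hK := mem_centralizer_sub_iff N R' (R'.map N.subtype) hR hRN
  have hRp : IsPGroup p ↥(R'.map N.subtype) := hR'p.map _
  have : Fintype ↥(Subgroup.centralizer ((R'.map N.subtype : Subgroup G) : Set G)) :=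
    Fintype.ofFinite _
  have : Fintype ↥(N.subgroupOf
      (Subgroup.centralizer ((R'.map N.subtype : Subgroup G) : Set G))) := Fintype.ofFinite _
  have : Fintype ↥(Subgroup.centralizer (R' : Set N)) := Fintype.ofFinite _
  obtain ⟨ξ₁, hξ₁⟩ := isPBlock_nonempty hM hg₁
  obtain ⟨ζ, hζ⟩ := exists_irr_over
    (N.subgroupOf (Subgroup.centralizer ((R'.map N.subtype : Subgroup G) : Set G)))
    (isoIrr (centSubIso N R' (R'.map N.subtype) hK).symm ξ₁)
  have hxN : (n : G) ∈ Subgroup.normalizer ((R'.map N.subtype : Subgroup G) : Set G) :=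
    (mem_normalizer_sub_iff N R' (R'.map N.subtype) hR hRN n).mp hnN
  have hBf : IsBrauerPairOf p M B (R'.map N.subtype)
      (blockOf M (ζ : ↥(Subgroup.centralizer ((R'.map N.subtype : Subgroup G) : Set G))
        → ℂ)) := by
    refine ⟨⟨hRp, ⟨ζ, rfl⟩⟩, hB, ?_⟩
    intro ζ' hζ'
    have h1 := brauerOmega_sameBlock hM (R'.map N.subtype) (blockCoeff B)
      (blockCoeff_memLocalRing hM B (blockClosed_of_isPBlock M hB))
      (conjInv_of_isClassFunction _ (blockCoeff_isClassFunction B)) ζ ζ' hζ'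
    have h2 : brauerOmega (R'.map N.subtype) (blockCoeff B)
        (ζ : ↥(Subgroup.centralizer ((R'.map N.subtype : Subgroup G) : Set G)) → ℂ)
        = brauerOmega R' (blockCoeff c) (ξ₁ : ↥(Subgroup.centralizer (R' : Set N)) → ℂ) := by
      rw [show blockCoeff B = subgroupBlockCoeff N c from funext hBc]
      exact brauerOmega_of_over hM N R' (R'.map N.subtype) hK c hc hst ζ ξ₁ hζ
    have h3 := hom ξ₁ hξ₁
    have e : brauerOmega (R'.map N.subtype) (blockCoeff B)
        (ζ' : ↥(Subgroup.centralizer ((R'.map N.subtype : Subgroup G) : Set G)) → ℂ) - 1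
        = (brauerOmega R' (blockCoeff c) (ξ₁ : ↥(Subgroup.centralizer (R' : Set N)) → ℂ) - 1)
          - (brauerOmega (R'.map N.subtype) (blockCoeff B)
              (ζ : ↥(Subgroup.centralizer ((R'.map N.subtype : Subgroup G) : Set G)) → ℂ)
            - brauerOmega (R'.map N.subtype) (blockCoeff B)
              (ζ' : ↥(Subgroup.centralizer ((R'.map N.subtype : Subgroup G) : Set G)) → ℂ)) := by
      rw [h2]
      ring
    rw [e]
    exact MemLocalIdeal.sub M h3 h1
  have hstabG : StabilizesBlock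
      (Subgroup.centralizer ((R'.map N.subtype : Subgroup G) : Set G))
      (blockOf M (ζ : ↥(Subgroup.centralizer ((R'.map N.subtype : Subgroup G) : Set G)) → ℂ))
      (n : G) := by
    let nH : ↥(Subgroup.normalizer ((Subgroup.centralizer
        ((R'.map N.subtype : Subgroup G) : Set G) : Subgroup G) : Set G)) :=
      Subgroup.inclusion (normalizer_le_normalizer_centralizer (R'.map N.subtype)) ⟨(n : G), hxN⟩
    apply (stabilizesBlock_iff
      (Subgroup.centralizer ((R'.map N.subtype : Subgroup G) : Set G)) nH _).mpr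
    have hc1 := (stabilizesBlock_iff_centAut N R' (R'.map N.subtype) hK n hxN hnN g₁).mp
      hstab ξ₁ hξ₁
    have hc2 := constituent_conj N R' (R'.map N.subtype) hK ⟨(n : G), hxN⟩ ζ ξ₁ hζ
    have hmem : nIrr (Subgroup.centralizer ((R'.map N.subtype : Subgroup G) : Set G)) nH ζ
        ∈ blockOf M (ζ : ↥(Subgroup.centralizer ((R'.map N.subtype : Subgroup G) : Set G))
          → ℂ) :=
      sameBlock_of_over_pindex hM
        (N.subgroupOf (Subgroup.centralizer ((R'.map N.subtype : Subgroup G) : Set G)))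
        (index_subgroupOf_pow N hidx _)
        (isoIrr (centSubIso N R' (R'.map N.subtype) hK).symm '' g₁)
        (isPBlock_image_isoIrr _ hg₁) ζ _ _ _ ⟨ξ₁, hξ₁, rfl⟩ ⟨_, hc1, rfl⟩ hζ hc2
    have h5 := isPBlock_eq_of_mem hM
      (conjSet_isPBlock (Subgroup.centralizer ((R'.map N.subtype : Subgroup G) : Set G)) nH
        (⟨ζ, rfl⟩ : IsPBlock M (blockOf M
          (ζ : ↥(Subgroup.centralizer ((R'.map N.subtype : Subgroup G) : Set G)) → ℂ))))
      (⟨ζ, rfl⟩ : IsPBlock M (blockOf M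
          (ζ : ↥(Subgroup.centralizer ((R'.map N.subtype : Subgroup G) : Set G)) → ℂ)))
      ((nIrr_mem_conjSet_iff _ nH _ ζ).mpr (sameBlock_refl M _)) hmem
    rw [h5]
  have hregG : IsPRegular p (n : G) := by
    unfold IsPRegular at hreg ⊢
    rw [Subgroup.orderOf_coe]
    exact hreg
  have hcent := hnil.2 (R'.map N.subtype) _ hBf (n : G) hxN hstabG hregG
  exact (hK n).mpr hcent

/-- if the stable block `c` of the normal subgroup `N` of `p`-power index is nilpotent, then
the block `B` of the group with the idempotent of `c` is nilpotent -/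
theorem nilpotent_up [Fact p.Prime] (hM : IsPModular p M) (N : Subgroup G) [hN : N.Normal]
    (hidx : ∃ k : ℕ, N.index = p ^ k) (c : Set (IrrCharacter N)) (hc : IsPBlock M c)
    (hst : ∀ x : G, StabilizesBlock N c x) (B : Set (IrrCharacter G)) (hB : IsPBlock M B)
    (hBc : ∀ g : G, blockCoeff B g = subgroupBlockCoeff N c g)
    (hnil : IsNilpotentBlock p M c) : IsNilpotentBlock p M B := by
  classical
  have hpr := isPrime_of_isPModular hM
  have : Fintype (IrrCharacter G) := Fintype.ofFinite _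
  have : Fintype N := Fintype.ofFinite _
  have : Fintype (IrrCharacter N) := Fintype.ofFinite _
  refine ⟨hB, ?_⟩
  intro Q f hQf x hxQ hxf hreg
  have hxNn : x ∈ N := mem_of_regular_of_index N hidx x hreg
  have hQp : IsPGroup p Q := hQf.1.1
  have hf : IsPBlock M f := hQf.1.2
  obtain ⟨R, hRdef⟩ : ∃ R : Subgroup G, R = Q ⊓ N := ⟨_, rfl⟩
  have hRQ : R ≤ Q := by rw [hRdef]; exact inf_le_left
  have hRN : R ≤ N := by rw [hRdef]; exact inf_le_right
  have hnormR : ∀ z : G, z ∈ Subgroup.normalizer (Q : Set G) →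
      z ∈ Subgroup.normalizer (R : Set G) := by
    intro z hz
    rw [hRdef]
    exact mem_normalizer_inf_normal Q N hz
  have hcommR : ∀ v ∈ Q, v⁻¹ * (x * v * x⁻¹) ∈ R := by
    intro v hv
    rw [hRdef]
    refine ⟨?_, ?_⟩
    · exact Subgroup.mul_mem _ (Subgroup.inv_mem _ hv)
        ((Subgroup.mem_normalizer_iff.mp hxQ v).mp hv)
    · have h1 := hN.conj_mem' x hxNn v
      have h2 := Subgroup.mul_mem _ h1 (Subgroup.inv_mem _ hxNn)
      have e : v⁻¹ * x * v * x⁻¹ = v⁻¹ * (x * v * x⁻¹) := by group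
      rw [e] at h2
      exact h2
  have hQR : Q ≤ Subgroup.normalizer (R : Set G) := fun q hq =>
    hnormR q (Subgroup.le_normalizer hq)
  have hxR : x ∈ Subgroup.normalizer (R : Set G) := hnormR x hxQ
  obtain ⟨fR, hnorm⟩ := exists_normal_subpair hM Q R f hQf.1 hRQ hQR
  have hBR : IsBrauerPairOf p M B R fR := (brauerPairOf_iff_of_normal hM hnorm B hB).mp hQf
  have hfR : IsPBlock M fR := hBR.1.2
  have hxfR : x ∈ pairStab hM R fR hfR := by
    have hfixP := conjPair_eq_self_of_mem_pairStab hM Q f hf x ⟨hxQ, hxf⟩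
    have hle : SubpairLE p M R fR Q f := by
      have h0 : NormalSubpairRel p M (⟨R, fR⟩ : BrauerPairIdx G) ⟨Q, f⟩ := hnorm
      exact Relation.ReflTransGen.single h0
    have h2 := subpairLE_conj (p := p) (M := M) x hle
    rw [hfixP] at h2
    obtain ⟨f', hf'⟩ := exists_snd_of_fst_eq (conjPair x (⟨R, fR⟩ : BrauerPairIdx G)) R
      (map_conj_eq_self_of_mem_normalizer hxR)
    rw [hf'] at h2
    have h3 := subpair_unique hM Q f hQf.1 R f' fR h2 hle
    rw [h3] at hf'
    exact mem_pairStab_of_conjPair_eq hM R fR hfR x hf'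
  obtain ⟨R', hR'def⟩ : ∃ R' : Subgroup N, R' = R.subgroupOf N := ⟨_, rfl⟩
  have hR : ∀ n : N, n ∈ R' ↔ (n : G) ∈ R := by
    intro n
    rw [hR'def]
    exact Subgroup.mem_subgroupOf
  have hR'p : IsPGroup p R' := by
    rw [hR'def]
    exact (hQp.to_le hRQ).comap_subtype
  have hK := mem_centralizer_sub_iff N R' R hR hRN
  have : Fintype ↥(Subgroup.centralizer (R : Set G)) := Fintype.ofFinite _
  have : Fintype ↥(N.subgroupOf (Subgroup.centralizer (R : Set G))) := Fintype.ofFinite _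
  have : Fintype ↥(Subgroup.centralizer (R' : Set N)) := Fintype.ofFinite _
  obtain ⟨ζ, hζ⟩ := isPBlock_nonempty hM hfR
  obtain ⟨ξ₂f, hξ₂irr, hξ₂ne⟩ := exists_irr_constituent
    (IsCharacter.restrict (isCharacter_of_isIrrCharacter ζ.2)
      (N.subgroupOf (Subgroup.centralizer (R : Set G))))
    (fun h0 => irr_one_ne_zero ζ.2 (congrFun h0 1))
  obtain ⟨ξ₁, hξ₁def⟩ : ∃ ξ₁ : IrrCharacter ↥(Subgroup.centralizer (R' : Set N)),
      ξ₁ = isoIrr (centSubIso N R' R hK) ⟨ξ₂f, hξ₂irr⟩ := ⟨_, rfl⟩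
  have hξ₂eq : isoIrr (centSubIso N R' R hK).symm ξ₁
      = (⟨ξ₂f, hξ₂irr⟩ : IrrCharacter ↥(N.subgroupOf (Subgroup.centralizer (R : Set G)))) := by
    rw [hξ₁def]
    apply Subtype.ext
    funext k
    rw [isoIrr_apply, isoIrr_apply]
    simp
  have he : classInner (fun k : ↥(N.subgroupOf (Subgroup.centralizer (R : Set G))) =>
        (ζ : ↥(Subgroup.centralizer (R : Set G)) → ℂ) k)
      (isoIrr (centSubIso N R' R hK).symm ξ₁ :
        ↥(N.subgroupOf (Subgroup.centralizer (R : Set G))) → ℂ) ≠ 0 := by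
    rw [hξ₂eq]
    exact hξ₂ne
  have hcpair : IsBrauerPairOf p M c R'
      (blockOf M (ξ₁ : ↥(Subgroup.centralizer (R' : Set N)) → ℂ)) := by
    refine ⟨⟨hR'p, ⟨ξ₁, rfl⟩⟩, hc, ?_⟩
    intro ξ' hξ'
    have h1 := brauerOmega_sameBlock hM R' (blockCoeff c)
      (blockCoeff_memLocalRing hM c (blockClosed_of_isPBlock M hc))
      (conjInv_of_isClassFunction _ (blockCoeff_isClassFunction c)) ξ₁ ξ' hξ'
    have h2 := brauerOmega_of_over hM N R' R hK c hc hst ζ ξ₁ he
    have h3 := hBR.2.2 ζ hζ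
    rw [show blockCoeff B = subgroupBlockCoeff N c from funext hBc, h2] at h3
    have e : brauerOmega R' (blockCoeff c) (ξ' : ↥(Subgroup.centralizer (R' : Set N)) → ℂ) - 1
        = (brauerOmega R' (blockCoeff c) (ξ₁ : ↥(Subgroup.centralizer (R' : Set N)) → ℂ) - 1)
          - (brauerOmega R' (blockCoeff c) (ξ₁ : ↥(Subgroup.centralizer (R' : Set N)) → ℂ)
            - brauerOmega R' (blockCoeff c)
              (ξ' : ↥(Subgroup.centralizer (R' : Set N)) → ℂ)) := by
      ring
    rw [e]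
    exact MemLocalIdeal.sub M h3 h1
  let xR : ↥(Subgroup.normalizer (R : Set G)) := ⟨x, hxR⟩
  let nH : ↥(Subgroup.normalizer ((Subgroup.centralizer (R : Set G) : Subgroup G) : Set G)) :=
    Subgroup.inclusion (normalizer_le_normalizer_centralizer R) xR
  have hζ' : nIrr (Subgroup.centralizer (R : Set G)) nH ζ ∈ fR :=
    (stabilizesBlock_iff (Subgroup.centralizer (R : Set G)) nH fR).mp hxfR.2 ⟨ζ, hζ, rfl⟩
  have he' := constituent_conj N R' R hK xR ζ ξ₁ he
  have hcov := mem_conjOrbit_of_sameBlock (N.subgroupOf (Subgroup.centralizer (R : Set G))) hM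
    (b := blockOf M (ξ₂f : ↥(N.subgroupOf (Subgroup.centralizer (R : Set G))) → ℂ))
    ⟨⟨ξ₂f, hξ₂irr⟩, rfl⟩ ζ (nIrr (Subgroup.centralizer (R : Set G)) nH ζ)
    (isPBlock_sameBlock' hM hfR hζ hζ') ⟨ξ₂f, hξ₂irr⟩ (sameBlock_refl M _) hξ₂ne _ he'
  obtain ⟨h, hh⟩ := hcov
  have h5 : isoIrr (centSubIso N R' R hK)
      (conjIrr (N.subgroupOf (Subgroup.centralizer (R : Set G)))
        (isoIrr (centSubIso N R' R hK).symm (isoIrr (centAut N R' R hK xR) ξ₁)) h)
      ∈ blockOf M (ξ₁ : ↥(Subgroup.centralizer (R' : Set N)) → ℂ) := by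
    have h6 := Set.mem_image_of_mem (isoIrr (centSubIso N R' R hK)) hh
    have h7 := image_isoIrr_blockOf (M := M) (centSubIso N R' R hK)
      (⟨ξ₂f, hξ₂irr⟩ : IrrCharacter ↥(N.subgroupOf (Subgroup.centralizer (R : Set G))))
    rw [← hξ₁def] at h7
    rw [← h7]
    exact h6
  rw [isoIrr_conjIrr, isoIrr_isoIrr_symm, ← isoIrr_centAut_mul] at h5
  obtain ⟨y, hydef⟩ : ∃ y : ↥(Subgroup.normalizer (R : Set G)),
      y = ⟨(h : G)⁻¹, inv_mem (Subgroup.centralizer_le_normalizer _ h.2)⟩ * xR := ⟨_, rfl⟩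
  rw [← hydef] at h5
  have hycoe : (y : G) = (h : G)⁻¹ * x := by rw [hydef]; rfl
  have hyall := isoIrr_mem_of_mem hM (centAut N R' R hK y)
    (⟨ξ₁, rfl⟩ : IsPBlock M (blockOf M (ξ₁ : ↥(Subgroup.centralizer (R' : Set N)) → ℂ)))
    ξ₁ (sameBlock_refl M _) h5
  obtain ⟨e, he1, he2⟩ := exists_pow_regular x (y : G) hreg
  have hye := isoIrr_centAut_pow N R' R hK y _ hyall e
  have hyeN : (y : G) ^ e ∈ N := mem_of_regular_of_index N hidx _ he2
  have hyenorm : (y : G) ^ e ∈ Subgroup.normalizer (R : Set G) := Subgroup.pow_mem _ y.2 e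
  have hn' : (⟨(y : G) ^ e, hyeN⟩ : N) ∈ Subgroup.normalizer (R' : Set N) :=
    (mem_normalizer_sub_iff N R' R hR hRN _).mpr hyenorm
  have hstab : StabilizesBlock (Subgroup.centralizer (R' : Set N))
      (blockOf M (ξ₁ : ↥(Subgroup.centralizer (R' : Set N)) → ℂ))
      (⟨(y : G) ^ e, hyeN⟩ : N) := by
    apply (stabilizesBlock_iff_centAut N R' R hK _ hyenorm hn' _).mpr
    have e0 : (⟨(y : G) ^ e, hyenorm⟩ : ↥(Subgroup.normalizer (R : Set G))) = y ^ e :=
      Subtype.ext (by simp)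
    rw [e0]
    exact hye
  have hregn : IsPRegular p (⟨(y : G) ^ e, hyeN⟩ : N) := by
    unfold IsPRegular
    rw [← Subgroup.orderOf_coe]
    exact he2
  have hcentN := hnil.2 R' _ hcpair _ hn' hstab hregn
  have hcentG : (y : G) ^ e ∈ Subgroup.centralizer (R : Set G) := (hK _).mp hcentN
  have hxcent : x ∈ Subgroup.centralizer (R : Set G) := by
    obtain ⟨h', hh', e1⟩ := pow_mul_mem_centralizer R x (h : G)⁻¹ hxR (inv_mem h.2) e
    rw [hycoe, e1, he1] at hcentG
    have h8 := Subgroup.mul_mem _ (Subgroup.inv_mem _ hh') hcentG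
    rw [inv_mul_cancel_left] at h8
    exact h8
  exact mem_centralizer_of_regular_of_comm_sub Q R hQp hRQ x hreg hxcent hcommR

/-- **nilpotency under a `p`-power index extension.**  For a normal subgroup `N` of `p`-power
index, a `G`-stable block `c` of `N` and the block `B` of `G` with the same idempotent: `c` is
nilpotent if and only if `B` is nilpotent -/
theorem nilpotent_iff_of_pindex [Fact p.Prime] (hM : IsPModular p M) (N : Subgroup G)
    [hN : N.Normal]
    (hidx : ∃ k : ℕ, N.index = p ^ k) (c : Set (IrrCharacter N)) (hc : IsPBlock M c)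
    (hst : ∀ x : G, StabilizesBlock N c x) (B : Set (IrrCharacter G)) (hB : IsPBlock M B)
    (hBc : ∀ g : G, blockCoeff B g = subgroupBlockCoeff N c g) :
    IsNilpotentBlock p M c ↔ IsNilpotentBlock p M B :=
  ⟨nilpotent_up hM N hidx c hc hst B hB hBc, nilpotent_down hM N hidx c hc hst B hB hBc⟩

end main

end Cfsg.Agent.Lib.Helper25
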